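import Cfsg.Agent.Lib.Helper62.AschU.A3

set_option autoImplicit false

/-! # the symplectic-type subfield structure attached to an alternating Gram matrix -/

namespace Cfsg.Agent.Lib.Helper62.SUSmall

open Cfsg Cfsg.Geo Matrix Cfsg.Agent.Lib.Helper13 Cfsg.Agent.Lib.Helper13.Asch
  Cfsg.Agent.Lib.Helper5.SUAsch Cfsg.Agent.Lib.Helper9.AschU Cfsg.Agent.Lib.Helper62.AschU
open scoped Kronecker MatrixGroups

variable {F : Type*} [Field F] [Fintype F] {n q : ℕ}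

open Cfsg.Agent.Lib.Helper43.PA in
theorem sp_struct_of_gram (hF : Fintype.card F = q ^ 2) (hn : 1 ≤ n) {H : Subgroup (GL (Fin n) F)}
    (hH : H ≤ GU n F q) (B : Matrix (Fin n) (Fin n) F) (hB : IsUnit B.det)
    (hs : Bᵀ = -B) (hd : ∀ i, B i i = 0) (a : F)
    (hBB : B.map (fun x => x ^ q) * B = a • 1)
    (hsim : ∀ h ∈ H, ∃ c : F, (h : Matrix (Fin n) (Fin n) F)ᵀ * B *
      (h : Matrix (Fin n) (Fin n) F) = c • B) :
    ∃ (F₀ : Subfield F) (P : GL (Fin n) F) (ζ : F), Fintype.card F = Nat.card F₀ ^ 2 ∧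
      ζ ≠ 0 ∧ ζ + ζ ^ q = 0 ∧ IsFormRationalStructure (hermForm n F q) F₀ ζ P ∧
      (∀ u : Fin n → F, (∀ i, u i ∈ F₀) →
        hermForm n F q ((P : Matrix (Fin n) (Fin n) F) *ᵥ u)
          ((P : Matrix (Fin n) (Fin n) F) *ᵥ u) = 0) ∧
      H ≤ subfieldSubgroup F₀ P := by
  classical
  have hinv : Function.Involutive (frobQ hF) := fun x => by simp [pow_q_pow_q hF]
  let σ : F ≃+* F := RingEquiv.ofBijective (frobQ hF) hinv.bijective
  have hσ : ∀ x, σ x = x ^ q := fun x => rfl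
  have hσ2 : σ ^ 2 = 1 := by
    ext x
    rw [pow_two, RingAut.mul_apply, RingAut.one_apply, hσ, hσ, pow_q_pow_q hF]
  have hσ1 : σ ≠ 1 := by
    intro h
    apply frobQ_ne_id hF
    ext x
    have := RingEquiv.congr_fun h x
    simpa [hσ] using this
  have hord : orderOf σ = 2 := orderOf_eq_prime hσ2 hσ1
  have hfun : (fun x : F => x ^ q) = ⇑σ := by funext x; exact (hσ x).symm
  rw [hfun] at hBB
  obtain ⟨F₀, hF₀, hcard⟩ := exists_fixedSubfield hF
  have hF₀' : ∀ x, x ∈ F₀ ↔ σ x = x := fun x => by rw [hF₀, hσ]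
  obtain ⟨P, m, hm, hP⟩ := exists_descent hn σ hord (fun c hc => by
    obtain ⟨l, hl⟩ := norm_surjective hF c (by rw [← hσ, hc])
    exact ⟨l, by rw [hσ, ← hl, pow_succ']⟩) B hB a hBB
  have hle : H ≤ subfieldSubgroup F₀ P := by
    intro h hh
    obtain ⟨c, hc⟩ := hsim h hh
    exact mem_subfield_of_descent hn σ F₀ hF₀' B hB P m hm hP h
      ((mem_GU_iff_matrix σ hσ h).1 (hH hh)) c hc
  have hval : ∀ u v : Fin n → F, (∀ i, v i ∈ F₀) →
      hermForm n F q (P.1 *ᵥ u) (P.1 *ᵥ v) = m * ((P.1 *ᵥ u) ⬝ᵥ (B *ᵥ (P.1 *ᵥ v))) := by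
    intro u v hv
    have hv' : ⇑σ ∘ v = v := by
      funext i
      exact (hF₀' _).1 (hv i)
    rw [hermForm_eq σ hσ, comp_mulVec, hv', hP, smul_mulVec, dotProduct_smul, smul_eq_mul,
      mulVec_mulVec]
  have hherm := (isUnitaryFormPow_hermForm (n := n) hF).herm
  obtain ⟨z, hz0, hz⟩ := exists_skew hF
  refine ⟨F₀, P, z, hcard, hz0, hz, ?_, ?_, hle⟩
  · intro u v hu hv
    have hz' : z ^ q = -z := by linear_combination hz
    rw [hF₀, mul_pow, ← hherm, hval v u hu, hval u v hv, hz']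
    have : (P.1 *ᵥ v) ⬝ᵥ (B *ᵥ (P.1 *ᵥ u)) = - ((P.1 *ᵥ u) ⬝ᵥ (B *ᵥ (P.1 *ᵥ v))) := by
      rw [dotProduct_mulVec, ← mulVec_transpose, hs, neg_mulVec, neg_dotProduct,
        dotProduct_comm]
    rw [this]
    ring
  · intro u hu
    rw [hval u u hu, alt_of_skew B hs hd, mul_zero]

end Cfsg.Agent.Lib.Helper62.SUSmall
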