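import Cfsg.Agent.Lib.Helper9.AschU.Base

set_option autoImplicit false

/-! # E4c : hyperbolic bases for a pair of complementary totally singular planes -/

namespace Cfsg.Agent.Lib.Helper62.SUSmall

open Cfsg Cfsg.Geo Matrix Cfsg.Agent.Lib.Helper13 Cfsg.Agent.Lib.Helper13.Asch
  Cfsg.Agent.Lib.Helper5.SUAsch Cfsg.Agent.Lib.Helper9.AschU
open scoped Kronecker MatrixGroups

variable {F : Type*} [Field F] {n q : ℕ}

/-- `v ↦ f(v, w)` -/
def hermL (q : ℕ) (w : Fin n → F) : (Fin n → F) →ₗ[F] F where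
  toFun v := hermForm n F q v w
  map_add' u v := hermForm_add_left u v w
  map_smul' a v := hermForm_smul_left a v w

lemma hermL_apply (w v : Fin n → F) : hermL q w v = hermForm n F q v w := rfl

variable [Fintype F]

theorem exists_dual_pair (hF : Fintype.card F = q ^ 2) (W W' : Submodule F (Fin n → F))
    (hW : IsTotallySingularFor (hermForm n F q) W) (hsup : W ⊔ W' = ⊤)
    (h2 : Module.finrank F W = 2) (h2' : Module.finrank F W' = 2) :
    ∃ e₁ ∈ W, ∃ e₂ ∈ W, ∃ f₁ ∈ W', ∃ f₂ ∈ W',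
      hermForm n F q e₁ f₁ = 1 ∧ hermForm n F q e₁ f₂ = 0 ∧
      hermForm n F q e₂ f₁ = 0 ∧ hermForm n F q e₂ f₂ = 1 := by
  classical
  let b' : Module.Basis (Fin 2) F W' := Module.finBasisOfFinrankEq F W' h2'
  let ψ : W →ₗ[F] (Fin 2 → F) :=
    LinearMap.pi (fun j => hermL q ((b' j : W') : Fin n → F) ∘ₗ W.subtype)
  have hψ : ∀ (w : W) j, ψ w j = hermForm n F q (w : Fin n → F) (b' j : Fin n → F) :=
    fun w j => rfl
  have hinj : Function.Injective ψ := by
    rw [← LinearMap.ker_eq_bot, LinearMap.ker_eq_bot']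
    intro w hw
    have h0 : ∀ j, hermForm n F q (w : Fin n → F) (b' j : Fin n → F) = 0 := by
      intro j
      rw [← hψ, hw]
      rfl
    have h1 : hermL q (w : Fin n → F) ∘ₗ W'.subtype = 0 := by
      apply b'.ext
      intro j
      show hermForm n F q (b' j : Fin n → F) (w : Fin n → F) = 0
      rw [← hermForm_swap hF, h0 j, zero_pow]
      have := two_le_of_card_sq hF
      omega
    have h3 : W ⊔ W' ≤ LinearMap.ker (hermL q (w : Fin n → F)) := by
      apply sup_le
      · intro x hx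
        exact hW x hx w w.2
      · intro x hx
        exact LinearMap.congr_fun h1 ⟨x, hx⟩
    rw [hsup] at h3
    by_contra hne
    have hne' : (w : Fin n → F) ≠ 0 := fun h => hne (Subtype.ext h)
    obtain ⟨⟨x, hx⟩, -⟩ := hermForm_nondegenerate (n := n) hF _ hne'
    exact hx (h3 (Submodule.mem_top : x ∈ ⊤))
  have hsurj : Function.Surjective ψ := by
    apply (LinearMap.injective_iff_surjective_of_finrank_eq_finrank _).1 hinj
    rw [h2, Module.finrank_fin_fun]
  obtain ⟨e₁, he₁⟩ := hsurj (Pi.single 0 1)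
  obtain ⟨e₂, he₂⟩ := hsurj (Pi.single 1 1)
  refine ⟨e₁, e₁.2, e₂, e₂.2, b' 0, (b' 0).2, b' 1, (b' 1).2, ?_, ?_, ?_, ?_⟩
  · rw [← hψ, he₁]; simp
  · rw [← hψ, he₁]; simp
  · rw [← hψ, he₂]; simp
  · rw [← hψ, he₂]; simp

end Cfsg.Agent.Lib.Helper62.SUSmall
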