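import Cfsg.Agent.Lib.Helper62.SUSmall.E4cAlg
import Cfsg.Agent.Lib.Helper62.SUSmall.E4cGeo
import Cfsg.Agent.Lib.Helper62.SUSmall.Gram
import Cfsg.Agent.Lib.Helper5.SUAsch.Defs2

set_option autoImplicit false

/-! # E4c : the stabiliser of a pair of totally singular planes in `SU_4(q)`, `q ≤ 3` -/

namespace Cfsg.Agent.Lib.Helper62.SUSmall

open Cfsg Cfsg.Geo Matrix Cfsg.Agent.Lib.Helper5.SUAsch Cfsg.Agent.Lib.Helper13
  Cfsg.Agent.Lib.Helper9.AschU
open scoped Kronecker MatrixGroups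

variable {F : Type*} [Field F]

/-- E4c -/
theorem tspair4_small [Fintype F] {q : ℕ} (hF : Fintype.card F = q ^ 2) (hq : q ≤ 3)
    (D : Fin 2 → Submodule F (Fin 4 → F)) (hD : IsMDecomposition 2 D)
    (hs : ∀ i, IsTotallySingularFor (hermForm 4 F q) (D i)) :
    ∃ (F₀ : Subfield F) (P : GL (Fin 4) F) (ζ : F), Fintype.card F = Nat.card F₀ ^ 2 ∧
      ζ ≠ 0 ∧ ζ + ζ ^ q = 0 ∧ IsFormRationalStructure (hermForm 4 F q) F₀ ζ P ∧
      (∀ u : Fin 4 → F, (∀ i, u i ∈ F₀) →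
        hermForm 4 F q ((P : Matrix (Fin 4) (Fin 4) F) *ᵥ u)
          ((P : Matrix (Fin 4) (Fin 4) F) *ᵥ u) = 0) ∧
      decompositionStabilizer D ⊓ SUg 4 F q ≤ subfieldSubgroup F₀ P := by
  classical
  have hq2 : 2 ≤ q := two_le_of_card_sq hF
  have hsup : D 0 ⊔ D 1 = ⊤ := by
    rw [← hD.iSup_eq_top]
    apply le_antisymm
    · exact sup_le (le_iSup D 0) (le_iSup D 1)
    · apply iSup_le
      intro i
      fin_cases i
      · exact le_sup_left
      · exact le_sup_right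
  obtain ⟨e₁, he₁, e₂, he₂, f₁, hf₁, f₂, hf₂, h11, h12, h21, h22⟩ :=
    exists_dual_pair hF (D 0) (D 1) (hs 0) hsup (hD.finrank_eq 0) (hD.finrank_eq 1)
  set c : Fin 4 → (Fin 4 → F) := ![e₁, e₂, f₁, f₂] with hc
  set Bm : Matrix (Fin 4) (Fin 4) F := Matrix.of fun k l => c l k with hBm
  set σ : F →+* F := frobQ hF with hσ
  have sw : ∀ u v, hermForm 4 F q v u = (hermForm 4 F q u v) ^ q :=
    fun u v => (hermForm_swap hF u v).symm
  have hq0 : q ≠ 0 := by omega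
  have hgram : ∀ l m, (Bmᵀ * Bm.map σ) l m = hermForm 4 F q (c l) (c m) := by
    intro l m
    rw [Matrix.mul_apply]
    rfl
  have c0 : c 0 ∈ D 0 := he₁
  have c1 : c 1 ∈ D 0 := he₂
  have c2 : c 2 ∈ D 1 := hf₁
  have c3 : c 3 ∈ D 1 := hf₂
  have R1 : Bmᵀ * Bm.map σ = G0 F := by
    ext l m
    rw [hgram]
    fin_cases l <;> fin_cases m
    · exact hs 0 _ c0 _ c0
    · exact hs 0 _ c0 _ c1
    · exact h11
    · exact h12
    · exact hs 0 _ c1 _ c0
    · exact hs 0 _ c1 _ c1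
    · exact h21
    · exact h22
    · show hermForm 4 F q f₁ e₁ = 1
      rw [sw, h11, one_pow]
    · show hermForm 4 F q f₁ e₂ = 0
      rw [sw, h21, zero_pow hq0]
    · exact hs 1 _ c2 _ c2
    · exact hs 1 _ c2 _ c3
    · show hermForm 4 F q f₂ e₁ = 0
      rw [sw, h12, zero_pow hq0]
    · show hermForm 4 F q f₂ e₂ = 1
      rw [sw, h22, one_pow]
    · exact hs 1 _ c3 _ c2
    · exact hs 1 _ c3 _ c3
  have hq' : ∀ x : F, σ x = x → x ≠ 0 → x * x = 1 := by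
    intro x hx hx0
    have hx' : x ^ q = x := hx
    rcases (by omega : q = 2 ∨ q = 3) with e | e
    · rw [e] at hx'
      have : x * x = x * 1 := by rw [mul_one, ← pow_two, hx']
      rw [mul_left_cancel₀ hx0 this, mul_one]
    · rw [e] at hx'
      have : x * (x * x) = x * 1 := by
        rw [mul_one]
        calc x * (x * x) = x ^ 3 := by ring
          _ = x := hx'
      exact mul_left_cancel₀ hx0 this
  refine sp_struct_of_gram hF (by norm_num) (inf_le_right.trans inf_le_left) (BB σ Bm)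
    (BB_isUnit σ Bm R1) (BB_transpose σ Bm) (BB_diag σ Bm) (-1) (BB_map_mul σ Bm R1) ?_
  intro h hh
  obtain ⟨⟨π, hπ⟩, hGU, hSL⟩ := hh
  have hmap : ∀ i, ∀ v ∈ D i, (h : Matrix (Fin 4) (Fin 4) F) *ᵥ v ∈ D (π i) := by
    intro i v hv
    rw [← hπ i]
    exact ⟨v, hv, by rw [Matrix.toLin'_apply]⟩
  have hU : (h : Matrix (Fin 4) (Fin 4) F)ᵀ * (h : Matrix (Fin 4) (Fin 4) F).map σ = 1 := by
    have h1 := (mem_GU_iff_adj hF h).1 hGU
    have h2 := congrArg Matrix.transpose h1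
    rw [Matrix.transpose_mul, Matrix.transpose_one] at h2
    exact h2
  have hdet : (h : Matrix (Fin 4) (Fin 4) F).det = 1 := by
    have h1 : Matrix.GeneralLinearGroup.det h = 1 := hSL
    have h2 := congrArg Units.val h1
    simpa using h2
  set M : Matrix (Fin 4) (Fin 4) F := Bi σ Bm * (h : Matrix (Fin 4) (Fin 4) F) * Bm with hM
  have hMU := conj_unitary σ Bm R1 (h : Matrix (Fin 4) (Fin 4) F) hU
  have hMdet : M.det = 1 := by rw [hM, conj_det σ Bm R1, hdet]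
  set X : Matrix (Fin 4) (Fin 4) F := (Bm.map σ)ᵀ * ((h : Matrix (Fin 4) (Fin 4) F) * Bm) with hX
  have hXv : ∀ n l, X n l = hermForm 4 F q ((h : Matrix (Fin 4) (Fin 4) F) *ᵥ c l) (c n) := by
    intro n l
    rw [hX, Matrix.mul_apply, hermForm_def]
    apply Finset.sum_congr rfl
    intro k _
    rw [mul_comm]
    rfl
  have hMX : M = G0 F * X := by
    rw [hM, hX, Bi]
    simp only [mul_assoc]
  have m0 : ∀ l, M 0 l = X 2 l := by
    intro l; rw [hMX]; simp [G0, Matrix.mul_apply, Fin.sum_univ_four]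
  have m1 : ∀ l, M 1 l = X 3 l := by
    intro l; rw [hMX]; simp [G0, Matrix.mul_apply, Fin.sum_univ_four]
  have m2 : ∀ l, M 2 l = X 0 l := by
    intro l; rw [hMX]; simp [G0, Matrix.mul_apply, Fin.sum_univ_four]
  have m3 : ∀ l, M 3 l = X 1 l := by
    intro l; rw [hMX]; simp [G0, Matrix.mul_apply, Fin.sum_univ_four]
  have hcases : (π 0 = 0 ∧ π 1 = 1) ∨ (π 0 = 1 ∧ π 1 = 0) := by
    have hne : π 0 ≠ π 1 := fun h => by simpa using π.injective h
    generalize π 0 = x at hne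
    generalize π 1 = y at hne
    fin_cases x <;> fin_cases y <;> simp at hne ⊢
  obtain ⟨cc, hcc⟩ : ∃ cc : F, Mᵀ * B0 F * M = cc • B0 F := by
    rcases hcases with ⟨p0, p1⟩ | ⟨p0, p1⟩
    · have g0 := hmap 0
      have g1 := hmap 1
      rw [p0] at g0
      rw [p1] at g1
      apply sim_of_diag σ hq' M hMU hMdet
      · rw [m0, hXv]; exact hs 1 _ (g1 _ c2) _ c2
      · rw [m0, hXv]; exact hs 1 _ (g1 _ c3) _ c2
      · rw [m1, hXv]; exact hs 1 _ (g1 _ c2) _ c3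
      · rw [m1, hXv]; exact hs 1 _ (g1 _ c3) _ c3
      · rw [m2, hXv]; exact hs 0 _ (g0 _ c0) _ c0
      · rw [m2, hXv]; exact hs 0 _ (g0 _ c1) _ c0
      · rw [m3, hXv]; exact hs 0 _ (g0 _ c0) _ c1
      · rw [m3, hXv]; exact hs 0 _ (g0 _ c1) _ c1
    · have g0 := hmap 0
      have g1 := hmap 1
      rw [p0] at g0
      rw [p1] at g1
      apply sim_of_antidiag σ hq' M hMU hMdet
      · rw [m0, hXv]; exact hs 1 _ (g0 _ c0) _ c2
      · rw [m0, hXv]; exact hs 1 _ (g0 _ c1) _ c2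
      · rw [m1, hXv]; exact hs 1 _ (g0 _ c0) _ c3
      · rw [m1, hXv]; exact hs 1 _ (g0 _ c1) _ c3
      · rw [m2, hXv]; exact hs 0 _ (g1 _ c2) _ c0
      · rw [m2, hXv]; exact hs 0 _ (g1 _ c3) _ c0
      · rw [m3, hXv]; exact hs 0 _ (g1 _ c2) _ c1
      · rw [m3, hXv]; exact hs 0 _ (g1 _ c3) _ c1
  exact ⟨cc, sim_transport σ Bm R1 _ hcc⟩

end Cfsg.Agent.Lib.Helper62.SUSmall
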