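import Cfsg.Agent.Lib.Helper62.SUSmall.E4cMat
import Cfsg.Agent.Lib.Helper62.AschU.A3

set_option autoImplicit false

/-! # E4c : transport of the alternating form to the standard coordinates -/

namespace Cfsg.Agent.Lib.Helper62.SUSmall

open Matrix

variable {F : Type*} [Field F]

section

variable (σ : F →+* F) (Bm : Matrix (Fin 4) (Fin 4) F) (R1 : Bmᵀ * Bm.map σ = G0 F)

/-- the inverse of the basis matrix -/
def Bi : Matrix (Fin 4) (Fin 4) F := G0 F * (Bm.map σ)ᵀ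

include R1

lemma Bi_mul : Bi σ Bm * Bm = 1 := by
  unfold Bi
  have : (Bm.map σ)ᵀ * Bm = G0 F := by
    have := congrArg Matrix.transpose R1
    rwa [Matrix.transpose_mul, Matrix.transpose_transpose, G0_transpose] at this
  rw [mul_assoc, this, G0_mul_G0]

lemma mul_Bi : Bm * Bi σ Bm = 1 := mul_eq_one_comm.1 (Bi_mul σ Bm R1)

lemma Bi_G0 : (Bi σ Bm)ᵀ * G0 F * (Bi σ Bm).map σ = 1 := by
  rw [← R1]
  calc (Bi σ Bm)ᵀ * (Bmᵀ * Bm.map σ) * (Bi σ Bm).map σ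
      = ((Bi σ Bm)ᵀ * Bmᵀ) * (Bm.map σ * (Bi σ Bm).map σ) := by simp only [mul_assoc]
    _ = 1 := by
        rw [← Matrix.transpose_mul, ← Matrix.map_mul, mul_Bi σ Bm R1]
        simp

lemma Bi_G0' : ((Bi σ Bm).map σ)ᵀ * G0 F * Bi σ Bm = 1 := by
  have := congrArg Matrix.transpose (Bi_G0 σ Bm R1)
  rw [Matrix.transpose_mul, Matrix.transpose_mul, Matrix.transpose_transpose, G0_transpose,
    Matrix.transpose_one, ← mul_assoc] at this
  exact this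

lemma Bi_map_mul : (Bi σ Bm).map σ * (Bi σ Bm)ᵀ = G0 F := by
  have h1 : (Bi σ Bm).map σ * (Bi σ Bm)ᵀ * G0 F = 1 := by
    rw [← R1]
    calc (Bi σ Bm).map σ * (Bi σ Bm)ᵀ * (Bmᵀ * Bm.map σ)
        = (Bi σ Bm).map σ * ((Bi σ Bm)ᵀ * Bmᵀ) * Bm.map σ := by simp only [mul_assoc]
      _ = 1 := by
          rw [← Matrix.transpose_mul, mul_Bi σ Bm R1, Matrix.transpose_one, mul_one,
            ← Matrix.map_mul, Bi_mul σ Bm R1]
          simp
  calc (Bi σ Bm).map σ * (Bi σ Bm)ᵀ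
      = (Bi σ Bm).map σ * (Bi σ Bm)ᵀ * (G0 F * G0 F) := by rw [G0_mul_G0, mul_one]
    _ = G0 F := by rw [← mul_assoc, h1, one_mul]

omit R1 in
/-- the alternating form in standard coordinates -/
def BB : Matrix (Fin 4) (Fin 4) F := (Bi σ Bm)ᵀ * B0 F * Bi σ Bm

omit R1 in
lemma BB_transpose : (BB σ Bm)ᵀ = - BB σ Bm := by
  unfold BB
  rw [Matrix.transpose_mul, Matrix.transpose_mul, Matrix.transpose_transpose, B0_transpose,
    ← mul_assoc]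
  simp

omit R1 in
lemma BB_diag (i : Fin 4) : BB σ Bm i i = 0 := by
  have h := Cfsg.Agent.Lib.Helper62.AschU.alt_of_skew (B0 F) B0_transpose B0_diag
    (fun k => Bi σ Bm k i)
  unfold BB
  rw [mul_assoc, Matrix.mul_apply]
  exact h

lemma BB_isUnit : IsUnit (BB σ Bm).det := by
  rw [← Matrix.isUnit_iff_isUnit_det]
  have h1 : IsUnit (Bi σ Bm) := IsUnit.of_mul_eq_one _ (Bi_mul σ Bm R1)
  have h2 : IsUnit (B0 F) := IsUnit.of_mul_eq_one (- B0 F) (by rw [mul_neg, B0_mul_B0, neg_neg])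
  exact (((Matrix.isUnit_transpose _).2 h1).mul h2).mul h1

lemma BB_map_mul : (BB σ Bm).map σ * BB σ Bm = (-1 : F) • 1 := by
  unfold BB
  rw [Matrix.map_mul, Matrix.map_mul, B0_map, Matrix.transpose_map]
  calc ((Bi σ Bm).map σ)ᵀ * B0 F * (Bi σ Bm).map σ * ((Bi σ Bm)ᵀ * B0 F * Bi σ Bm)
      = ((Bi σ Bm).map σ)ᵀ * (B0 F * ((Bi σ Bm).map σ * (Bi σ Bm)ᵀ) * B0 F) * Bi σ Bm := by
        simp only [mul_assoc]
    _ = -(((Bi σ Bm).map σ)ᵀ * G0 F * Bi σ Bm) := by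
        rw [Bi_map_mul σ Bm R1, B0_G0_B0]
        simp
    _ = _ := by rw [Bi_G0' σ Bm R1]; simp

variable (h : Matrix (Fin 4) (Fin 4) F)

lemma conj_unitary (hU : hᵀ * h.map σ = 1) :
    (Bi σ Bm * h * Bm)ᵀ * G0 F * (Bi σ Bm * h * Bm).map σ = G0 F := by
  rw [Matrix.map_mul, Matrix.map_mul, Matrix.transpose_mul, Matrix.transpose_mul]
  calc Bmᵀ * (hᵀ * (Bi σ Bm)ᵀ) * G0 F * ((Bi σ Bm).map σ * h.map σ * Bm.map σ)
      = Bmᵀ * (hᵀ * ((Bi σ Bm)ᵀ * G0 F * (Bi σ Bm).map σ) * h.map σ) * Bm.map σ := by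
        simp only [mul_assoc]
    _ = G0 F := by rw [Bi_G0 σ Bm R1, mul_one, hU, mul_one, R1]

lemma conj_det : (Bi σ Bm * h * Bm).det = h.det := by
  have h1 : (Bi σ Bm).det * Bm.det = 1 := by
    rw [← Matrix.det_mul, Bi_mul σ Bm R1, Matrix.det_one]
  rw [Matrix.det_mul, Matrix.det_mul]
  calc (Bi σ Bm).det * h.det * Bm.det = ((Bi σ Bm).det * Bm.det) * h.det := by ring
    _ = h.det := by rw [h1, one_mul]

lemma sim_transport {c : F}
    (hc : (Bi σ Bm * h * Bm)ᵀ * B0 F * (Bi σ Bm * h * Bm) = c • B0 F) :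
    hᵀ * BB σ Bm * h = c • BB σ Bm := by
  have e : Bi σ Bm * h = (Bi σ Bm * h * Bm) * Bi σ Bm := by
    rw [mul_assoc _ Bm, mul_Bi σ Bm R1, mul_one]
  obtain ⟨M, hM⟩ : ∃ M, M = Bi σ Bm * h * Bm := ⟨_, rfl⟩
  rw [← hM] at hc e
  unfold BB
  calc hᵀ * ((Bi σ Bm)ᵀ * B0 F * Bi σ Bm) * h
      = (Bi σ Bm * h)ᵀ * B0 F * (Bi σ Bm * h) := by
        rw [Matrix.transpose_mul]; simp only [mul_assoc]
    _ = (Bi σ Bm)ᵀ * (Mᵀ * B0 F * M) * Bi σ Bm := by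
        rw [e, Matrix.transpose_mul]; simp only [mul_assoc]
    _ = _ := by rw [hc, Matrix.mul_smul, Matrix.smul_mul]

end

end Cfsg.Agent.Lib.Helper62.SUSmall
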